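import Cfsg.Agent.Lib.Helper13.SUSmall.Defs
import Cfsg.Agent.Lib.Helper5.HermFrames

/-! # E6cN: normal form of a unitary cube root of `ω` in `GU_6(2)` -/

set_option autoImplicit false

namespace Cfsg.Agent.Lib.Helper5.SUSmall.E6cN

open Cfsg Cfsg.Geo Matrix Cfsg.Agent.Lib.Helper5.SUAsch Cfsg.Agent.Lib.Helper13
  Cfsg.Agent.Lib.Helper13.SUSmall
open scoped MatrixGroups

variable {F : Type*} [Field F] [Fintype F]

omit [Fintype F] in
theorem herm_sum_left {n q : ℕ} {κ : Type*} [Fintype κ] (c : κ → F) (y : κ → Fin n → F)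
    (w : Fin n → F) :
    hermForm n F q (∑ i, c i • y i) w = ∑ i, c i * hermForm n F q (y i) w := by
  simp only [hermForm, Finset.sum_apply, Pi.smul_apply, smul_eq_mul, Finset.sum_mul,
    Finset.mul_sum]
  rw [Finset.sum_comm]
  refine Finset.sum_congr rfl fun i _ => Finset.sum_congr rfl fun j _ => by ring

omit [Fintype F] in
theorem li_of_orthonormal {n q : ℕ} {κ : Type*} [Fintype κ] [DecidableEq κ] (y : κ → Fin n → F)
    (h : ∀ i j, hermForm n F q (y i) (y j) = if i = j then 1 else 0) : LinearIndependent F y := by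
  rw [Fintype.linearIndependent_iff]
  intro c hc j
  have h1 := herm_sum_left (q := q) c y (y j)
  rw [hc] at h1
  simp only [h, mul_ite, mul_one, mul_zero, Finset.sum_ite_eq', Finset.mem_univ, if_true] at h1
  rw [← h1]
  simp [hermForm]

omit [Fintype F] in
theorem herm_single_single {n q : ℕ} (hq : q ≠ 0) (i j : Fin n) :
    hermForm n F q (Pi.single i 1) (Pi.single j 1) = if i = j then 1 else 0 := by
  rw [hermForm_single_left]
  by_cases h : i = j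
  · subst h; simp
  · rw [if_neg h, Pi.single_eq_of_ne h, zero_pow hq]

theorem two_eq_zero' (hF : Fintype.card F = 2 ^ 2) : (2 : F) = 0 := by
  have h1 : ((Fintype.card F : ℕ) : F) = 0 := Nat.cast_card_eq_zero F
  rw [hF] at h1
  have h2 : (2 : F) ^ 2 = 0 := by exact_mod_cast h1
  exact pow_eq_zero_iff (two_ne_zero) |>.1 h2

theorem pow_four' (hF : Fintype.card F = 2 ^ 2) (x : F) : x ^ 4 = x := by
  have := FiniteField.pow_card x
  rw [hF] at this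
  simpa using this

local notation "f" => hermForm 6 F 2

section core
variable (hF : Fintype.card F = 2 ^ 2) (ω : F) (hω : ω ^ 2 + ω + 1 = 0)
  (L : Matrix (Fin 6) (Fin 6) F) (hp : ∀ u v : Fin 6 → F, hermForm 6 F 2 (L *ᵥ u) (L *ᵥ v) = hermForm 6 F 2 u v)
  (h3 : ∀ u : Fin 6 → F, L *ᵥ (L *ᵥ (L *ᵥ u)) = ω • u)

include hF hp h3 in
theorem f_L2 (u : Fin 6 → F) : f (L *ᵥ (L *ᵥ u)) u = ω * (f (L *ᵥ u) u) ^ 2 := by
  rw [← hp (L *ᵥ (L *ᵥ u)) u, h3, hermForm_smul_left, hermForm_swap hF]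

include hF hω hp h3 in
theorem lemA (u : Fin 6 → F) (hu : f u u = 1) :
    ∃ b : F, f (u + b • (L *ᵥ u)) (u + b • (L *ᵥ u)) = 1 ∧
      f (L *ᵥ (u + b • (L *ᵥ u))) (u + b • (L *ᵥ u)) = 0 := by
  set τ := f (L *ᵥ u) u with hτ
  have h2 := two_eq_zero' hF
  have h4 := pow_four' hF τ
  have e1 : f u (L *ᵥ u) = τ ^ 2 := (hermForm_swap hF _ _).symm
  have e2 : f (L *ᵥ (L *ᵥ u)) u = ω * τ ^ 2 := f_L2 hF ω L hp h3 u
  have e3 : f (L *ᵥ u) (L *ᵥ u) = 1 := by rw [hp, hu]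
  have e4 : f (L *ᵥ (L *ᵥ u)) (L *ᵥ u) = τ := by rw [hp]
  refine ⟨ω * τ ^ 2, ?_, ?_⟩
  · simp only [hermForm_add_left, hermForm_add_right hF, hermForm_smul_left, hermForm_smul_right,
      hu, e1, e3, ← hτ]
    linear_combination (ω * τ ^ 6) * hω - (ω * τ ^ 2) * h4
  · simp only [Matrix.mulVec_add, Matrix.mulVec_smul, hermForm_add_left, hermForm_add_right hF,
      hermForm_smul_left, hermForm_smul_right, e2, e3, e4, ← hτ]
    linear_combination (ω ^ 2 * τ ^ 4 + τ) * h2 + ((ω - 1) * τ ^ 7) * hω + (1 + τ ^ 3) * h4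

/-- the Gram matrix of `(v, Lv, L²v)` -/
def tri (v : Fin 6 → F) : Fin 3 → Fin 6 → F := ![v, L *ᵥ v, L *ᵥ (L *ᵥ v)]

include hF hp h3 in
theorem lemB (v : Fin 6 → F) (hv : f v v = 1) (hv0 : f (L *ᵥ v) v = 0) (i j : Fin 3) :
    f (tri L v i) (tri L v j) = if i = j then 1 else 0 := by
  have e1 : f v (L *ᵥ v) = 0 := by rw [← hermForm_swap hF, hv0]; simp
  have e2 : f (L *ᵥ (L *ᵥ v)) v = 0 := by rw [f_L2 hF ω L hp h3, hv0]; simp
  have e3 : f v (L *ᵥ (L *ᵥ v)) = 0 := by rw [← hermForm_swap hF, e2]; simp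
  fin_cases i <;> fin_cases j <;> simp [-Matrix.mulVec_mulVec, tri, hp, hv, hv0, e1, e2, e3]

/-- orthogonal to the triple -/
def perp (v x : Fin 6 → F) : Prop := ∀ j, f x (tri L v j) = 0

omit [Fintype F] in
include hp h3 in
theorem perp_L (v x : Fin 6 → F) (hx : perp L v x) : perp L v (L *ᵥ x) := by
  have h0 := hx 0
  have h1 := hx 1
  have h2 := hx 2
  simp only [tri, Matrix.cons_val_zero, Matrix.cons_val_one, Matrix.cons_val] at h0 h1 h2
  intro j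
  fin_cases j
  · show f (L *ᵥ x) v = 0
    rw [← hp, ← hp, h3, hermForm_smul_left, h2, mul_zero]
  · show f (L *ᵥ x) (L *ᵥ v) = 0
    rw [hp, h0]
  · show f (L *ᵥ x) (L *ᵥ (L *ᵥ v)) = 0
    rw [hp, h1]

omit [Fintype F] in
theorem perp_add_smul (v x y : Fin 6 → F) (b : F) (hx : perp L v x) (hy : perp L v y) :
    perp L v (x + b • y) := by
  intro j
  rw [hermForm_add_left, hermForm_smul_left, hx j, hy j]; simp

/-- the six vectors -/
def six (v w : Fin 6 → F) : Fin 6 → Fin 6 → F :=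
  ![v, L *ᵥ v, L *ᵥ (L *ᵥ v), w, L *ᵥ w, L *ᵥ (L *ᵥ w)]

include hF hp h3 in
theorem six_gram (v w : Fin 6 → F) (hv : f v v = 1) (hv0 : f (L *ᵥ v) v = 0)
    (hw : f w w = 1) (hw0 : f (L *ᵥ w) w = 0) (hvw : perp L v w) (i j : Fin 6) :
    f (six L v w i) (six L v w j) = if i = j then 1 else 0 := by
  have A := lemB hF ω L hp h3 v hv hv0
  have B := lemB hF ω L hp h3 w hw hw0
  have C0 := hvw
  have C1 := perp_L ω L hp h3 v w hvw
  have C2 := perp_L ω L hp h3 v _ C1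
  have sw : ∀ x y : Fin 6 → F, f x y = 0 → f y x = 0 := fun x y h => by
    rw [← hermForm_swap hF, h]; simp
  fin_cases i <;> fin_cases j
  · exact A 0 0
  · exact A 0 1
  · exact A 0 2
  · exact sw _ _ (C0 0)
  · exact sw _ _ (C1 0)
  · exact sw _ _ (C2 0)
  · exact A 1 0
  · exact A 1 1
  · exact A 1 2
  · exact sw _ _ (C0 1)
  · exact sw _ _ (C1 1)
  · exact sw _ _ (C2 1)
  · exact A 2 0
  · exact A 2 1
  · exact A 2 2
  · exact sw _ _ (C0 2)
  · exact sw _ _ (C1 2)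
  · exact sw _ _ (C2 2)
  · exact C0 0
  · exact C0 1
  · exact C0 2
  · exact B 0 0
  · exact B 0 1
  · exact B 0 2
  · exact C1 0
  · exact C1 1
  · exact C1 2
  · exact B 1 0
  · exact B 1 1
  · exact B 1 2
  · exact C2 0
  · exact C2 1
  · exact C2 2
  · exact B 2 0
  · exact B 2 1
  · exact B 2 2

include hF hω hp h3 in
theorem exists_six : ∃ v w : Fin 6 → F, ∀ i j : Fin 6,
    f (six L v w i) (six L v w j) = if i = j then 1 else 0 := by
  obtain ⟨b, hb1, hb2⟩ := lemA hF ω hω L hp h3 (Pi.single 0 1)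
    (by rw [herm_single_single (by norm_num)]; simp)
  set v : Fin 6 → F := Pi.single 0 1 + b • (L *ᵥ Pi.single 0 1) with hv
  have A := lemB hF ω L hp h3 v hb1 hb2
  obtain ⟨T, hT⟩ := Cfsg.Agent.Lib.Helper5.exists_gu_of_frames hF 6
    (fun i : Fin 3 => (Pi.single (Fin.castLE (by norm_num) i) 1 : Fin 6 → F)) (tri L v)
    (li_of_orthonormal (q := 2) _ (fun i j => by
      rw [herm_single_single (by norm_num)]
      simp [Fin.castLE_inj]))
    (li_of_orthonormal (q := 2) _ A)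
    (fun i j => by
      rw [herm_single_single (by norm_num), A]
      simp [Fin.castLE_inj])
  set u' : Fin 6 → F := Cfsg.Agent.Lib.Helper5.guToMat 6 F 2 T *ᵥ Pi.single 3 1 with hu'
  have hu1 : f u' u' = 1 := by
    rw [hu', Cfsg.Agent.Lib.Helper5.gu_preserves, herm_single_single (by norm_num)]; simp
  have hu2 : perp L v u' := by
    intro j
    rw [← hT, hu', Cfsg.Agent.Lib.Helper5.gu_preserves, herm_single_single (by norm_num)]
    fin_cases j <;> simp [Fin.ext_iff]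
  obtain ⟨b', hb1', hb2'⟩ := lemA hF ω hω L hp h3 u' hu1
  refine ⟨v, u' + b' • (L *ᵥ u'), six_gram hF ω L hp h3 v _ hb1 hb2 hb1' hb2' ?_⟩
  exact perp_add_smul L v _ _ _ hu2 (perp_L ω L hp h3 v _ hu2)

end core

omit [Fintype F] in
theorem lam6_single (ω : F) : 
    lam6 ω *ᵥ Pi.single 0 1 = Pi.single 1 1 ∧ lam6 ω *ᵥ Pi.single 1 1 = Pi.single 2 1 ∧
    lam6 ω *ᵥ Pi.single 2 1 = ω • Pi.single 0 1 ∧
    lam6 ω *ᵥ Pi.single 3 1 = Pi.single 4 1 ∧ lam6 ω *ᵥ Pi.single 4 1 = Pi.single 5 1 ∧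
    lam6 ω *ᵥ Pi.single 5 1 = ω • Pi.single 3 1 := by
  refine ⟨?_, ?_, ?_, ?_, ?_, ?_⟩ <;>
  · rw [Matrix.mulVec_single_one]
    ext i
    fin_cases i <;> simp [lam6, Matrix.col_apply, Fin.ext_iff]

theorem e6c_normal (hF : Fintype.card F = 2 ^ 2) (ω : F) (hω : ω ^ 2 + ω + 1 = 0)
    (l : GL (Fin 6) F) (hl : l ∈ GU 6 F 2)
    (h3 : (l : Matrix (Fin 6) (Fin 6) F) ^ 3 = ω • (1 : Matrix (Fin 6) (Fin 6) F)) :
    ∃ T ∈ GU 6 F 2, (l : Matrix (Fin 6) (Fin 6) F) * (T : Matrix (Fin 6) (Fin 6) F) =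
      (T : Matrix (Fin 6) (Fin 6) F) * lam6 ω := by
  set L : Matrix (Fin 6) (Fin 6) F := (l : Matrix (Fin 6) (Fin 6) F) with hL
  have hp : ∀ u v : Fin 6 → F, hermForm 6 F 2 (L *ᵥ u) (L *ᵥ v) = hermForm 6 F 2 u v := hl
  have h3' : ∀ u : Fin 6 → F, L *ᵥ (L *ᵥ (L *ᵥ u)) = ω • u := by
    intro u
    rw [Matrix.mulVec_mulVec, Matrix.mulVec_mulVec, ← pow_two, ← pow_succ, h3,
      Matrix.smul_mulVec, Matrix.one_mulVec]
  obtain ⟨v, w, hG⟩ := exists_six hF ω hω L hp h3'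
  obtain ⟨T, hT⟩ := Cfsg.Agent.Lib.Helper5.exists_gu_of_frames hF 6
    (fun i : Fin 6 => (Pi.single i 1 : Fin 6 → F)) (six L v w)
    (li_of_orthonormal (q := 2) _ (fun i j => herm_single_single (by norm_num) i j))
    (li_of_orthonormal (q := 2) _ hG)
    (fun i j => by rw [herm_single_single (by norm_num), hG])
  have hT' : ∀ i, ((T : GL (Fin 6) F) : Matrix (Fin 6) (Fin 6) F) *ᵥ Pi.single i 1 = six L v w i :=
    fun i => congrFun hT i
  obtain ⟨l0, l1, l2, l3, l4, l5⟩ := lam6_single ω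
  refine ⟨T, T.2, ?_⟩
  apply Matrix.ext_of_mulVec_single
  intro i
  rw [← Matrix.mulVec_mulVec, ← Matrix.mulVec_mulVec, hT']
  fin_cases i
  · show L *ᵥ v = _ *ᵥ (lam6 ω *ᵥ Pi.single 0 1)
    rw [l0, hT']; rfl
  · show L *ᵥ (L *ᵥ v) = _ *ᵥ (lam6 ω *ᵥ Pi.single 1 1)
    rw [l1, hT']; rfl
  · show L *ᵥ (L *ᵥ (L *ᵥ v)) = _ *ᵥ (lam6 ω *ᵥ Pi.single 2 1)
    rw [l2, Matrix.mulVec_smul, hT', h3']; rfl
  · show L *ᵥ w = _ *ᵥ (lam6 ω *ᵥ Pi.single 3 1)
    rw [l3, hT']; rfl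
  · show L *ᵥ (L *ᵥ w) = _ *ᵥ (lam6 ω *ᵥ Pi.single 4 1)
    rw [l4, hT']; rfl
  · show L *ᵥ (L *ᵥ (L *ᵥ w)) = _ *ᵥ (lam6 ω *ᵥ Pi.single 5 1)
    rw [l5, Matrix.mulVec_smul, hT', h3']; rfl

end Cfsg.Agent.Lib.Helper5.SUSmall.E6cN
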