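import Mathlib

set_option autoImplicit false

/-! # SU_4(3): the invariant set of 480 vectors, and the check in a concrete model of the field
with nine elements -/

namespace Cfsg.Agent.Lib.Helper5.SUSmall

open Matrix

/-- a concrete field with nine elements -/
abbrev K9 := QuadraticAlgebra (ZMod 3) (-1) 0

instance factK9 : Fact (∀ r : ZMod 3, r ^ 2 ≠ -1 + 0 * r) := ⟨by decide⟩

instance fintypeK9 : Fintype K9 :=
  Fintype.ofEquiv _ (QuadraticAlgebra.equivProd (-1 : ZMod 3) 0).symm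

theorem card_K9 : Fintype.card K9 = 9 := by
  rw [Fintype.card_congr (QuadraticAlgebra.equivProd (-1 : ZMod 3) 0)]
  simp

/-- the invariant set of vectors -/
def cnd {R : Type*} [CommRing R] (w : Fin 4 → R) : Prop :=
  (∃ i, w i ≠ 0) ∧ (¬ ∃ i, w i = 0 ∧ ∀ j, j ≠ i → w j ≠ 0) ∧
    (∀ i j, w i ≠ 0 → w j ≠ 0 → w i ^ 4 = w j ^ 4) ∧
    ((∀ i, w i ≠ 0) → (∏ i, w i) ^ 2 = 1)

instance decCnd (w : Fin 4 → K9) : Decidable (cnd w) := by
  unfold cnd; infer_instance

/-- the extra element, as a map -/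
def T {R : Type*} [CommRing R] (w : Fin 4 → R) : Fin 4 → R :=
  ![-w 0 + (-w 0 + w 1 + w 2 + w 3), w 1 + (-w 0 + w 1 + w 2 + w 3),
    w 2 + (-w 0 + w 1 + w 2 + w 3), w 3 + (-w 0 + w 1 + w 2 + w 3)]

theorem T_smul {R : Type*} [CommRing R] (c : R) (w : Fin 4 → R) : T (c • w) = c • T w := by
  ext i
  fin_cases i <;> simp [T] <;> ring

set_option maxRecDepth 100000 in
theorem model1 : ∀ b c d : K9, cnd (T ![1, b, c, d]) ↔ cnd ![1, b, c, d] := by
  decide +kernel

set_option maxRecDepth 100000 in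
theorem model2 : ∀ c d : K9, cnd (T ![0, 1, c, d]) ↔ cnd ![0, 1, c, d] := by
  decide +kernel

theorem model3 : ∀ d : K9, cnd (T ![0, 0, 1, d]) ↔ cnd ![0, 0, 1, d] := by
  decide +kernel

theorem model4 : cnd (T ![0, 0, 0, (1 : K9)]) ↔ cnd ![0, 0, 0, (1 : K9)] := by
  decide +kernel

theorem model5 : cnd (T ![0, 0, 0, (0 : K9)]) ↔ cnd ![0, 0, 0, (0 : K9)] := by
  decide +kernel

theorem cnd_scale {R : Type*} [CommRing R] [IsDomain R] (d w : Fin 4 → R) (hd : ∀ i, d i ≠ 0)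
    (h4 : ∀ i j, d i ^ 4 = d j ^ 4) (hp : (∏ i, d i) ^ 2 = 1) :
    cnd (fun i => d i * w i) ↔ cnd w := by
  unfold cnd
  have h0 : ∀ i, d i * w i = 0 ↔ w i = 0 := fun i => by simp [hd i]
  have h5 : ∀ i j, (d i * w i) ^ 4 = (d j * w j) ^ 4 ↔ w i ^ 4 = w j ^ 4 := by
    intro i j
    rw [mul_pow, mul_pow, h4 i j]
    exact mul_right_inj' (pow_ne_zero _ (hd j))
  simp only [ne_eq, h0, h5]
  simp only [Finset.prod_mul_distrib, mul_pow, hp, one_mul]

theorem pow_eight_K9 : ∀ c : K9, c ≠ 0 → c ^ 8 = 1 := by decide +kernel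

theorem cnd_smul_K9 (c : K9) (hc : c ≠ 0) (w : Fin 4 → K9) : cnd (c • w) ↔ cnd w := by
  have := cnd_scale (fun _ => c) w (fun _ => hc) (fun _ _ => rfl) (by
    simp only [Finset.prod_const, Finset.card_univ, Fintype.card_fin]
    rw [← pow_mul]; exact pow_eight_K9 c hc)
  exact this

theorem cnd_T_model (w : Fin 4 → K9) : cnd (T w) ↔ cnd w := by
  have key : ∀ (c : K9) (w' : Fin 4 → K9), c ≠ 0 → (cnd (T w') ↔ cnd w') →
      (cnd (T (c • w')) ↔ cnd (c • w')) := by
    intro c w' hc h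
    rw [T_smul, cnd_smul_K9 c hc, cnd_smul_K9 c hc, h]
  by_cases h0 : w 0 = 0
  · by_cases h1 : w 1 = 0
    · by_cases h2 : w 2 = 0
      · by_cases h3 : w 3 = 0
        · have : w = ![0, 0, 0, 0] := by
            funext i; fin_cases i <;> simp [h0, h1, h2, h3]
          rw [this]; exact model5
        · have : w = w 3 • ![0, 0, 0, 1] := by
            funext i; fin_cases i <;> simp [h0, h1, h2]
          rw [this]; exact key _ _ h3 model4
      · have : w = w 2 • ![0, 0, 1, (w 2)⁻¹ * w 3] := by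
          funext i; fin_cases i <;> simp [h0, h1, h2, mul_inv_cancel_left₀]
        rw [this]; exact key _ _ h2 (model3 _)
    · have : w = w 1 • ![0, 1, (w 1)⁻¹ * w 2, (w 1)⁻¹ * w 3] := by
        funext i; fin_cases i <;> simp [h0, h1, mul_inv_cancel_left₀]
      rw [this]; exact key _ _ h1 (model2 _ _)
  · have : w = w 0 • ![1, (w 0)⁻¹ * w 1, (w 0)⁻¹ * w 2, (w 0)⁻¹ * w 3] := by
      funext i; fin_cases i <;> simp [h0, mul_inv_cancel_left₀]
    rw [this]; exact key _ _ h0 (model1 _ _ _)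

/-- the extra element -/
def A0 (R : Type*) [CommRing R] : Matrix (Fin 4) (Fin 4) R :=
  !![-2, 1, 1, 1; -1, 2, 1, 1; -1, 1, 2, 1; -1, 1, 1, 2]

theorem A0_mulVec {R : Type*} [CommRing R] (w : Fin 4 → R) : A0 R *ᵥ w = T w := by
  ext i
  fin_cases i <;> simp [A0, T, Matrix.mulVec, dotProduct, Fin.sum_univ_four] <;> ring

theorem det_A0_model : (A0 K9).det = 1 := by
  decide +kernel

theorem unitary_A0_model :
    (Matrix.of fun i j => (A0 K9 j i) ^ 3 : Matrix (Fin 4) (Fin 4) K9) * A0 K9 = 1 := by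
  decide +kernel

theorem three_K9 : (3 : K9) = 0 := by decide +kernel

end Cfsg.Agent.Lib.Helper5.SUSmall
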