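import Mathlib
import Cfsg.Agent.Lib.Helper5.SUSmall.E4aModel
import Cfsg.Agent.Lib.Helper5.SUAsch.Bridge
import Cfsg.Agent.Lib.Helper9.AschU.Base
import Cfsg.Agent.Lib.Helper65.Asch.D12

set_option autoImplicit false

/-! # SU_4(3): the stabiliser of an orthogonal frame is not maximal -/

namespace Cfsg.Agent.Lib.Helper5.SUSmall

open Cfsg Cfsg.Geo Matrix Cfsg.Agent.Lib.Helper5.SUAsch Cfsg.Agent.Lib.Helper13
  Cfsg.Agent.Lib.Helper9.AschU
open Cfsg.Agent.Lib.Helper65.Asch (mono mono_mulVec det_mono)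
open scoped MatrixGroups

theorem cnd_map {R S : Type*} [CommRing R] [CommRing S] (φ : R →+* S)
    (hφ : Function.Injective φ) (w : Fin 4 → R) : cnd (φ ∘ w) ↔ cnd w := by
  have h0 : ∀ x, φ x = 0 ↔ x = 0 := fun x => map_eq_zero_iff φ hφ
  have h1 : (∏ i, φ (w i)) ^ 2 = 1 ↔ (∏ i, w i) ^ 2 = 1 := by
    rw [← map_prod, ← map_pow]
    constructor
    · intro h
      apply hφ
      rw [h, map_one]
    · intro h
      rw [h, map_one]
  have h2 : ∀ i j, φ (w i) ^ 4 = φ (w j) ^ 4 ↔ w i ^ 4 = w j ^ 4 := by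
    intro i j
    rw [← map_pow, ← map_pow]
    exact hφ.eq_iff
  simp only [cnd, Function.comp_apply, h0, h1, h2, ne_eq]

theorem cnd_perm {R : Type*} [CommRing R] (σ : Equiv.Perm (Fin 4)) (w : Fin 4 → R) :
    cnd (w ∘ σ) ↔ cnd w := by
  unfold cnd
  simp only [Function.comp_apply]
  have e1 : (∃ i, w (σ i) ≠ 0) ↔ ∃ i, w i ≠ 0 := σ.exists_congr_left.trans (by simp)
  have e2 : (∃ i, w (σ i) = 0 ∧ ∀ j, j ≠ i → w (σ j) ≠ 0) ↔
      ∃ i, w i = 0 ∧ ∀ j, j ≠ i → w j ≠ 0 := by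
    constructor
    · rintro ⟨i, hi, h⟩
      refine ⟨σ i, hi, fun j hj => ?_⟩
      have := h (σ.symm j) (fun hh => hj (by rw [← hh]; simp))
      simpa using this
    · rintro ⟨i, hi, h⟩
      refine ⟨σ.symm i, by simpa using hi, fun j hj => ?_⟩
      exact h (σ j) (fun hh => hj (by rw [← hh]; simp))
  have e3 : (∀ i, w (σ i) ≠ 0) ↔ ∀ i, w i ≠ 0 := σ.forall_congr_left.trans (by simp)
  have e4 : ∏ i, w (σ i) = ∏ i, w i := Equiv.prod_comp σ w
  have e5 : (∀ i j, w (σ i) ≠ 0 → w (σ j) ≠ 0 → w (σ i) ^ 4 = w (σ j) ^ 4) ↔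
      ∀ i j, w i ≠ 0 → w j ≠ 0 → w i ^ 4 = w j ^ 4 := by
    constructor
    · intro h i j hi hj
      have := h (σ.symm i) (σ.symm j) (by simpa using hi) (by simpa using hj)
      simpa using this
    · intro h i j hi hj
      exact h _ _ hi hj
  rw [e1, e2, e3, e4, e5]

variable {F : Type*} [Field F]

theorem cnd_mono (σ : Equiv.Perm (Fin 4)) (d : Fin 4 → F) (hdet : (mono σ d).det = 1)
    (h4 : ∀ i, d i ^ 4 = 1) (w : Fin 4 → F) : cnd (mono σ d *ᵥ w) ↔ cnd w := by
  rw [det_mono] at hdet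
  have hd : ∀ i, d i ≠ 0 := by
    intro i hi
    have : ∏ i, d i = 0 := Finset.prod_eq_zero (Finset.mem_univ i) hi
    rw [this, mul_zero] at hdet
    exact zero_ne_one hdet
  have hp : (∏ i, d i) ^ 2 = 1 := by
    rcases Int.units_eq_one_or (Equiv.Perm.sign σ⁻¹) with h | h
    · rw [h] at hdet
      have : ∏ i, d i = 1 := by simpa using hdet
      rw [this, one_pow]
    · rw [h] at hdet
      have : ∏ i, d i = -1 := by
        have h' : -(∏ i, d i) = 1 := by simpa using hdet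
        rw [← h', neg_neg]
      rw [this]; ring
  rw [mono_mulVec, cnd_perm, cnd_scale d w hd (fun i j => by rw [h4 i, h4 j]) hp]

/-- the stabiliser of the invariant set -/
def M0 (F : Type*) [Field F] : Subgroup (GL (Fin 4) F) where
  carrier := {g | ∀ w, cnd ((g : Matrix (Fin 4) (Fin 4) F) *ᵥ w) ↔ cnd w}
  mul_mem' {a b} ha hb := by
    intro w
    rw [Units.val_mul, ← Matrix.mulVec_mulVec, ha, hb]
  one_mem' := by intro w; simp
  inv_mem' {a} ha := by
    intro w
    rw [← ha, Matrix.mulVec_mulVec, ← Units.val_mul, mul_inv_cancel, Units.val_one,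
      Matrix.one_mulVec]

theorem A0_map {R S : Type*} [CommRing R] [CommRing S] (φ : R →+* S) :
    (A0 R).map φ = A0 S := by
  ext i j
  fin_cases i <;> fin_cases j <;> simp [A0, map_ofNat]

variable [Fintype F]

/-- an isomorphism with the model -/
noncomputable def eK9 (hF : Fintype.card F = 3 ^ 2) : K9 ≃+* F :=
  FiniteField.ringEquivOfCardEq (by rw [card_K9, hF]; norm_num)

theorem three_eq_zero (hF : Fintype.card F = 3 ^ 2) : (3 : F) = 0 := by
  have := congrArg (eK9 hF) three_K9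
  rwa [map_ofNat, map_zero] at this

theorem det_A0 (hF : Fintype.card F = 3 ^ 2) : (A0 F).det = 1 := by
  let φ : K9 →+* F := (eK9 hF : K9 ≃+* F)
  have h := congrArg φ det_A0_model
  rw [RingHom.map_det, map_one] at h
  rw [← h, ← A0_map φ]
  rfl

theorem adj_A0 (hF : Fintype.card F = 3 ^ 2) : adj 3 (A0 F) * A0 F = 1 := by
  let φ : K9 →+* F := (eK9 hF : K9 ≃+* F)
  have h := congrArg (fun X : Matrix (Fin 4) (Fin 4) K9 => X.map φ) unitary_A0_model
  simp only [Matrix.map_mul, A0_map] at h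
  have h1 : (1 : Matrix (Fin 4) (Fin 4) K9).map φ = 1 := by
    ext i j
    by_cases hij : i = j
    · subst hij; simp
    · simp [hij]
  rw [h1] at h
  rw [← h]
  congr 1
  ext i j
  simp only [adj, Matrix.map_apply, Matrix.of_apply, map_pow]
  rw [← A0_map φ]
  rfl

theorem cnd_A0 (hF : Fintype.card F = 3 ^ 2) (w : Fin 4 → F) :
    cnd (A0 F *ᵥ w) ↔ cnd w := by
  let e : K9 ≃+* F := eK9 hF
  let φ : K9 →+* F := e
  have hφ : Function.Injective φ := e.injective
  obtain ⟨w₀, rfl⟩ : ∃ w₀ : Fin 4 → K9, φ ∘ w₀ = w :=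
    ⟨fun i => e.symm (w i), by ext i; simp [φ]⟩
  have h1 : A0 F *ᵥ (φ ∘ w₀) = φ ∘ (A0 K9 *ᵥ w₀) := by
    ext i
    rw [Function.comp_apply, RingHom.map_mulVec, A0_map]
  rw [h1, cnd_map φ hφ, cnd_map φ hφ, A0_mulVec]
  exact cnd_T_model w₀

omit [Fintype F] in
theorem A0_ne_mono (σ : Equiv.Perm (Fin 4)) (d : Fin 4 → F) : A0 F ≠ mono σ d := by
  intro h
  have e1 : (1 : F) = if (0 : Fin 4) = σ 1 then d 1 else 0 := by
    have := congrFun (congrFun h 0) 1
    simpa [A0, mono] using this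
  have e2 : (1 : F) = if (2 : Fin 4) = σ 1 then d 1 else 0 := by
    have := congrFun (congrFun h 2) 1
    simpa [A0, mono] using this
  by_cases h01 : (0 : Fin 4) = σ 1
  · rw [if_neg (by rw [← h01]; decide)] at e2
    exact one_ne_zero e2
  · rw [if_neg h01] at e1
    exact one_ne_zero e1

/-- an orthonormal frame for a non-degenerate decomposition into lines -/
theorem exists_frame_unitary {q : ℕ} (hF : Fintype.card F = q ^ 2)
    (D : Fin 4 → Submodule F (Fin 4 → F))
    (hD : IsNondegenerateMDecomposition (hermForm 4 F q) 1 D) :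
    ∃ B : GL (Fin 4) F, B ∈ GU 4 F q ∧ ∀ g ∈ decompositionStabilizer D,
      ∃ (σ : Equiv.Perm (Fin 4)) (d : Fin 4 → F),
        ((B⁻¹ * g * B : GL (Fin 4) F) : Matrix (Fin 4) (Fin 4) F) = mono σ d := by
  have hv : ∀ i, ∃ v : Fin 4 → F, v ≠ 0 ∧ v ∈ D i ∧ (∀ w ∈ D i, ∃ c : F, w = c • v) ∧
      hermForm 4 F q v v = 1 := by
    intro i
    obtain ⟨v, hv0, hv⟩ := finrank_eq_one_iff'.mp (hD.decomp.finrank_eq i)
    have hv0' : (v : Fin 4 → F) ≠ 0 := fun h => hv0 (Subtype.ext h)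
    have hspan : ∀ w ∈ D i, ∃ c : F, w = c • (v : Fin 4 → F) := by
      intro w hw
      obtain ⟨c, hc⟩ := hv ⟨w, hw⟩
      exact ⟨c, by rw [← Submodule.coe_smul, hc]⟩
    obtain ⟨⟨x, hx, hxv⟩, -⟩ := hD.nondegenerate i v v.2 hv0'
    obtain ⟨c, rfl⟩ := hspan x hx
    rw [hermForm_smul_left] at hxv
    have ha : hermForm 4 F q (v : Fin 4 → F) v ≠ 0 := right_ne_zero_of_mul hxv
    set a := hermForm 4 F q (v : Fin 4 → F) v with hadef
    have haq : a ^ q = a := hermForm_swap hF _ _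
    obtain ⟨l, hl⟩ := norm_surjective hF a⁻¹ (by rw [inv_pow, haq])
    have hl0 : l ≠ 0 := by
      rintro rfl
      rw [zero_pow (by omega)] at hl
      exact (inv_ne_zero ha) hl.symm
    refine ⟨l • (v : Fin 4 → F), smul_ne_zero hl0 hv0', (D i).smul_mem l v.2, ?_, ?_⟩
    · intro w hw
      obtain ⟨c, rfl⟩ := hspan w hw
      exact ⟨c * l⁻¹, by rw [smul_smul, mul_assoc, inv_mul_cancel₀ hl0, mul_one]⟩
    · rw [hermForm_smul_left, hermForm_smul_right, ← hadef, ← mul_assoc, ← pow_succ', hl,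
        inv_mul_cancel₀ ha]
  choose v hv0 hvD hvs hv1 using hv
  have hli : LinearIndependent F v := hD.decomp.indep.linearIndependent D hvD hv0
  let B₀ : Matrix (Fin 4) (Fin 4) F := Matrix.of fun x y => v y x
  have hcol : B₀.col = v := by
    ext y x; rfl
  have hu : IsUnit B₀ := by
    rw [← Matrix.linearIndependent_cols_iff_isUnit, hcol]
    exact hli
  obtain ⟨B, hB⟩ := hu
  refine ⟨B, ?_, ?_⟩
  · rw [mem_GU_iff_adj hF, hB]
    ext i j
    have h1 : (adj q B₀ * B₀) i j = hermForm 4 F q (v j) (v i) := by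
      simp only [Matrix.mul_apply, adj, B₀, Matrix.of_apply, hermForm]
      exact Finset.sum_congr rfl fun k _ => mul_comm _ _
    rw [h1]
    by_cases hij : i = j
    · subst hij; rw [hv1, Matrix.one_apply_eq]
    · rw [Matrix.one_apply_ne hij]
      exact hD.orthogonal j i (Ne.symm hij) _ (hvD j) _ (hvD i)
  rintro g ⟨σ, hσ⟩
  have hg : ∀ i, ∃ c : F, (g : Matrix (Fin 4) (Fin 4) F) *ᵥ v i = c • v (σ i) := by
    intro i
    apply hvs
    rw [← hσ i]
    exact ⟨v i, hvD i, by simp⟩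
  choose d hd using hg
  refine ⟨σ, d, ?_⟩
  have key : (g : Matrix (Fin 4) (Fin 4) F) * B₀ = B₀ * mono σ d := by
    ext x y
    have h1 : ((g : Matrix (Fin 4) (Fin 4) F) * B₀) x y =
        ((g : Matrix (Fin 4) (Fin 4) F) *ᵥ v y) x := by
      simp [Matrix.mul_apply, Matrix.mulVec, dotProduct, B₀]
    rw [h1, hd y, Matrix.mul_apply, Finset.sum_eq_single (σ y)]
    · simp [mono, B₀, mul_comm]
    · intro k _ hk
      simp [mono, hk]
    · simp
  rw [Units.val_mul, Units.val_mul, hB, mul_assoc, key, ← mul_assoc, ← hB, ← Units.val_mul,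
    inv_mul_cancel, Units.val_one, one_mul]

omit [Fintype F] in
/-- the entries of a unitary monomial matrix -/
theorem mono_unitary {q : ℕ} (σ : Equiv.Perm (Fin 4)) (d : Fin 4 → F)
    (h : ∀ u v, hermForm 4 F q (mono σ d *ᵥ u) (mono σ d *ᵥ v) = hermForm 4 F q u v) (i : Fin 4) :
    d i ^ (q + 1) = 1 := by
  have h1 := h (Pi.single i 1) (Pi.single i 1)
  rw [hermForm_single_left, Pi.single_eq_same, one_pow, mono_mulVec] at h1
  rw [← h1]
  simp only [hermForm, Function.comp_apply]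
  rw [Equiv.sum_comp σ.symm (fun k => d k * (Pi.single i 1 : Fin 4 → F) k *
    (d k * (Pi.single i 1 : Fin 4 → F) k) ^ q), Finset.sum_eq_single i]
  · simp [pow_succ']
  · intro k _ hk
    simp [Pi.single_eq_of_ne hk]
  · simp

/-- E4a -/
theorem frame4_q3_not_max (hF : Fintype.card F = 3 ^ 2)
    (D : Fin 4 → Submodule F (Fin 4 → F))
    (hD : IsNondegenerateMDecomposition (hermForm 4 F 3) 1 D) :
    ¬ IsMaximalIn (SUg 4 F 3) (decompositionStabilizer D ⊓ SUg 4 F 3) := by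
  rintro ⟨-, hmax⟩
  obtain ⟨B, hBU, hB⟩ := exists_frame_unitary hF D hD
  have hSLn : (specialLinear (Fin 4) F).Normal := by
    unfold specialLinear; infer_instance
  let M : Subgroup (GL (Fin 4) F) :=
    (M0 F).comap (MulAut.conj B⁻¹).toMonoidHom ⊓ SUg 4 F 3
  have hmem : ∀ g, g ∈ M ↔ (B⁻¹ * g * B ∈ M0 F ∧ g ∈ SUg 4 F 3) := by
    intro g
    simp [M, Subgroup.mem_inf, Subgroup.mem_comap, MulAut.conj_apply]
  have hconj : ∀ g, g ∈ SUg 4 F 3 → B⁻¹ * g * B ∈ SUg 4 F 3 := by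
    intro g hg
    refine ⟨(GU 4 F 3).mul_mem ((GU 4 F 3).mul_mem ((GU 4 F 3).inv_mem hBU) hg.1) hBU, ?_⟩
    have := hSLn.conj_mem g hg.2 B⁻¹
    simpa using this
  have hconj' : ∀ g, g ∈ SUg 4 F 3 → B * g * B⁻¹ ∈ SUg 4 F 3 := fun g hg =>
    ⟨(GU 4 F 3).mul_mem ((GU 4 F 3).mul_mem hBU hg.1) ((GU 4 F 3).inv_mem hBU),
      hSLn.conj_mem g hg.2 B⟩
  have hle : decompositionStabilizer D ⊓ SUg 4 F 3 ≤ M := by
    intro g hg
    obtain ⟨hg1, hg2⟩ := Subgroup.mem_inf.mp hg
    rw [hmem]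
    refine ⟨?_, hg2⟩
    obtain ⟨σ, d, hσ⟩ := hB g hg1
    intro w
    have h2 := (mem_SUg_iff _).1 (hconj g hg2)
    rw [hσ] at h2 ⊢
    exact cnd_mono σ d h2.2 (fun i => mono_unitary σ d h2.1 i) w
  rcases hmax M hle inf_le_right with hM | hM
  · -- the extra element
    let a : GL (Fin 4) F := Matrix.GeneralLinearGroup.mkOfDetNeZero (A0 F)
      (by rw [det_A0 hF]; exact one_ne_zero)
    have ha : (a : Matrix (Fin 4) (Fin 4) F) = A0 F := rfl
    have haSU : a ∈ SUg 4 F 3 := by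
      refine Subgroup.mem_inf.2 ⟨?_, ?_⟩
      · rw [mem_GU_iff_adj hF, ha]; exact adj_A0 hF
      · rw [mem_specialLinear_iff', ha, det_A0 hF]
    have haM : B * a * B⁻¹ ∈ M := by
      rw [hmem]
      refine ⟨?_, hconj' a haSU⟩
      have : B⁻¹ * (B * a * B⁻¹) * B = a := by group
      rw [this]
      intro w
      rw [ha]
      exact cnd_A0 hF w
    rw [hM] at haM
    obtain ⟨σ, d, hσ⟩ := hB _ (Subgroup.mem_inf.mp haM).1
    have : B⁻¹ * (B * a * B⁻¹) * B = a := by group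
    rw [this, ha] at hσ
    exact A0_ne_mono σ d hσ
  · -- a transvection
    have h3 : (3 : F) = 0 := three_eq_zero hF
    obtain ⟨c, hc0, hc⟩ := exists_skew hF
    have hr : hermForm 4 F 3 ![1, 1, 1, 0] ![1, 1, 1, 0] = 0 := by
      simp [hermForm, Fin.sum_univ_four]
      linear_combination h3
    obtain ⟨τ, hτSU, hτ⟩ := exists_tv hF ![1, 1, 1, 0] c hr hc
    have hτM : B * τ * B⁻¹ ∈ M := by
      rw [hM]; exact hconj' τ hτSU
    rw [hmem] at hτM
    have : B⁻¹ * (B * τ * B⁻¹) * B = τ := by group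
    rw [this] at hτM
    have h1 : cnd (![1, 0, 0, 0] : Fin 4 → F) := by
      refine ⟨⟨0, by simp⟩, ?_, ?_, ?_⟩
      · rintro ⟨i, hi, hj⟩
        fin_cases i
        · simp at hi
        · exact hj 3 (by decide) (by simp)
        · exact hj 3 (by decide) (by simp)
        · exact hj 1 (by decide) (by simp)
      · intro i j hi hj
        fin_cases i
        · fin_cases j
          · rfl
          · simp at hj
          · simp at hj
          · simp at hj
        · simp at hi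
        · simp at hi
        · simp at hi
      · intro h'
        exact absurd rfl (h' 1)
    have h2 := (hτM.1 _).mpr h1
    have h4 : (τ : Matrix (Fin 4) (Fin 4) F) *ᵥ ![1, 0, 0, 0] = ![1 + c, c, c, 0] := by
      rw [hτ]
      have : hermForm 4 F 3 ![1, 0, 0, 0] ![1, 1, 1, 0] = 1 := by
        simp [hermForm, Fin.sum_univ_four]
      rw [this, mul_one]
      ext i
      fin_cases i <;> simp
    rw [h4] at h2
    apply h2.2.1
    refine ⟨3, by simp, ?_⟩
    intro j hj
    fin_cases j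
    · show (1 : F) + c ≠ 0
      intro h0
      have hc1 : c = -1 := by linear_combination h0
      rw [hc1] at hc
      have : (1 : F) = 0 := by linear_combination hc + h3
      exact one_ne_zero this
    · exact hc0
    · exact hc0
    · exact absurd rfl hj

end Cfsg.Agent.Lib.Helper5.SUSmall
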